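import Mathlib
import Cfsg.Agent.Base

/-!
Poisson summation over `ℤ ^ n` for Gaussians attached to a positive definite real symmetric matrix.
-/

set_option autoImplicit false

namespace H56

open Complex Real Finset

variable {n : ℕ}

/-- the quadratic form of a real matrix on complex vectors -/
noncomputable def qf (A : Matrix (Fin n) (Fin n) ℝ) (w : Fin n → ℂ) : ℂ :=
  ∑ i, ∑ j, w i * A i j * w j

/-- the quadratic form of a real matrix on real vectors -/
noncomputable def qr (A : Matrix (Fin n) (Fin n) ℝ) (w : Fin n → ℝ) : ℝ :=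
  ∑ i, ∑ j, w i * A i j * w j

/-- positive definiteness -/
def PD (A : Matrix (Fin n) (Fin n) ℝ) : Prop := ∀ x : Fin n → ℝ, x ≠ 0 → 0 < qr A x

theorem qf_ofReal (A : Matrix (Fin n) (Fin n) ℝ) (w : Fin n → ℝ) :
    qf A (fun i => (w i : ℂ)) = (qr A w : ℂ) := by
  simp [qf, qr]

theorem qf_intCast (A : Matrix (Fin n) (Fin n) ℝ) (w : Fin n → ℤ) :
    qf A (fun i => (w i : ℂ)) = (qr A (fun i => (w i : ℝ)) : ℂ) := by
  simp [qf, qr]

theorem qr_smul (A : Matrix (Fin n) (Fin n) ℝ) (t : ℝ) (w : Fin n → ℝ) :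
    qr A (t • w) = t ^ 2 * qr A w := by
  simp only [qr, Pi.smul_apply, smul_eq_mul, mul_sum]
  exact sum_congr rfl fun i _ => sum_congr rfl fun j _ => by ring

theorem PD.exists_eps {A : Matrix (Fin n) (Fin n) ℝ} (hA : PD A) :
    ∃ ε : ℝ, 0 < ε ∧ ∀ x : Fin n → ℝ, ε * ∑ i, x i ^ 2 ≤ qr A x := by
  rcases Nat.eq_zero_or_pos n with rfl | hn
  · exact ⟨1, one_pos, fun x => by simp [qr]⟩
  have : Nonempty (Fin n) := ⟨⟨0, hn⟩⟩
  have hc : Continuous (qr A) := by unfold qr; fun_prop
  obtain ⟨x₀, hx₀, hmin⟩ := (isCompact_sphere (0 : Fin n → ℝ) 1).exists_isMinOn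
    (NormedSpace.sphere_nonempty.2 zero_le_one) hc.continuousOn
  have hx₀' : x₀ ≠ 0 := by
    rintro rfl
    simp at hx₀
  have hm := hA x₀ hx₀'
  have hn' : (0 : ℝ) < n := by exact_mod_cast hn
  refine ⟨qr A x₀ / n, div_pos hm hn', fun x => ?_⟩
  by_cases hx : x = 0
  · subst hx; simp [qr]
  have hnx : 0 < ‖x‖ := norm_pos_iff.2 hx
  have h1 : qr A x₀ ≤ qr A (‖x‖⁻¹ • x) := hmin (by
    simp [norm_smul, hnx.ne'])
  rw [qr_smul] at h1
  have h2 : ∑ i, x i ^ 2 ≤ n * ‖x‖ ^ 2 := by
    calc ∑ i, x i ^ 2 ≤ ∑ _i : Fin n, ‖x‖ ^ 2 := sum_le_sum fun i _ => by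
          have := norm_le_pi_norm x i
          rw [Real.norm_eq_abs] at this
          rw [← sq_abs]
          exact pow_le_pow_left₀ (abs_nonneg _) this 2
      _ = n * ‖x‖ ^ 2 := by simp
  calc qr A x₀ / n * ∑ i, x i ^ 2 ≤ qr A x₀ / n * (n * ‖x‖ ^ 2) :=
        mul_le_mul_of_nonneg_left h2 (div_pos hm hn').le
    _ = qr A x₀ * ‖x‖ ^ 2 := by field_simp
    _ ≤ (‖x‖⁻¹ ^ 2 * qr A x) * ‖x‖ ^ 2 := mul_le_mul_of_nonneg_right h1 (by positivity)
    _ = qr A x := by field_simp

/-- `ℤ ^ (n + 1) = ℤ × ℤ ^ n` -/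
def consE (n : ℕ) : ℤ × (Fin n → ℤ) ≃ (Fin (n + 1) → ℤ) where
  toFun p := Fin.cons p.1 p.2
  invFun x := (x 0, fun i => x i.succ)
  left_inv p := by simp
  right_inv x := Fin.cons_self_tail x

theorem consE_zero (p : ℤ × (Fin n → ℤ)) : consE n p 0 = p.1 := rfl
theorem consE_succ (p : ℤ × (Fin n → ℤ)) (i : Fin n) : consE n p i.succ = p.2 i := rfl

theorem summable_pi_prod : ∀ (n : ℕ) (f : Fin n → ℤ → ℝ), (∀ i m, 0 ≤ f i m) → (∀ i, Summable (f i)) →
    Summable fun x : Fin n → ℤ => ∏ i, f i (x i)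
  | 0, _, _, _ => Summable.of_finite
  | n + 1, f, h0, h => by
    rw [← (consE n).summable_iff]
    have := (h 0).mul_of_nonneg (summable_pi_prod n (fun i => f i.succ) (fun i => h0 _) (fun i => h _))
      (h0 0) (fun x => prod_nonneg fun i _ => h0 _ _)
    refine this.congr fun p => ?_
    simp [Fin.prod_univ_succ, consE_zero, consE_succ]

theorem summable_exp_quad {a : ℝ} (ha : 0 < a) (b : ℝ) :
    Summable fun m : ℤ => rexp (-π * a * (m : ℝ) ^ 2 + 2 * π * b * m) := by
  have := ((summable_jacobiTheta₂_term_iff (-I * b) (I * a)).2 (by simpa using ha)).norm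
  refine this.congr fun m => ?_
  rw [jacobiTheta₂_term, Complex.norm_exp]
  congr 1
  have : 2 * π * I * m * (-I * b) + π * I * m ^ 2 * (I * a) =
      ((-π * a * (m : ℝ) ^ 2 + 2 * π * b * m : ℝ) : ℂ) := by
    push_cast
    linear_combination (-2 * π * m * b + π * m ^ 2 * a : ℂ) * I_sq
  rw [this, ofReal_re]

/-- Gaussian term -/
noncomputable def gt (A : Matrix (Fin n) (Fin n) ℝ) (s : ℂ) (b : Fin n → ℂ) (x : Fin n → ℤ) : ℂ :=
  cexp (-π * s * qf A (fun i => x i) + 2 * π * ∑ i, b i * x i)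

theorem norm_gt (A : Matrix (Fin n) (Fin n) ℝ) (s : ℂ) (b : Fin n → ℂ) (x : Fin n → ℤ) :
    ‖gt A s b x‖ = rexp (-π * s.re * qr A (fun i => x i) + 2 * π * ∑ i, (b i).re * x i) := by
  rw [gt, Complex.norm_exp, qf_intCast]
  simp

theorem summable_gt {A : Matrix (Fin n) (Fin n) ℝ} (hA : PD A) {s : ℂ} (hs : 0 < s.re)
    (b : Fin n → ℂ) : Summable fun x => ‖gt A s b x‖ := by
  obtain ⟨ε, hε, h⟩ := hA.exists_eps
  refine Summable.of_nonneg_of_le (fun _ => norm_nonneg _) (fun x => ?_)
    (summable_pi_prod n (fun i m => rexp (-π * (s.re * ε) * (m : ℝ) ^ 2 + 2 * π * (b i).re * m))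
      (fun _ _ => (Real.exp_pos _).le) (fun i => summable_exp_quad (mul_pos hs hε) _))
  rw [norm_gt, ← Real.exp_sum, Real.exp_le_exp, sum_add_distrib, ← mul_sum]
  have h1 := h (fun i => x i)
  have h2 : ∑ i, 2 * π * (b i).re * x i = 2 * π * ∑ i, (b i).re * x i := by
    rw [mul_sum]; exact sum_congr rfl fun i _ => by ring
  rw [h2]
  have := mul_le_mul_of_nonneg_left h1 (mul_pos pi_pos hs).le
  nlinarith

theorem qf_add {A : Matrix (Fin n) (Fin n) ℝ} (hA : ∀ i j, A i j = A j i) (u w : Fin n → ℂ) :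
    qf A (fun i => u i + w i) = qf A u + 2 * ∑ i, (∑ j, w j * A j i) * u i + qf A w := by
  have e : ∑ i, (∑ j, w j * A j i) * u i = ∑ i, ∑ j, u i * A i j * w j := by
    refine sum_congr rfl fun i _ => ?_
    rw [sum_mul]
    exact sum_congr rfl fun j _ => by rw [hA i j]; ring
  have e2 : ∑ i, (∑ j, w j * A j i) * u i = ∑ i, ∑ j, w i * A i j * u j := by
    rw [sum_comm]
    exact sum_congr rfl fun i _ => by rw [sum_mul]
  rw [two_mul]
  nth_rewrite 1 [e]
  rw [e2]
  simp only [qf, ← sum_add_distrib]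
  exact sum_congr rfl fun i _ => sum_congr rfl fun j _ => by ring

theorem qf_succ {A : Matrix (Fin (n + 1)) (Fin (n + 1)) ℝ} (hA : ∀ i j, A i j = A j i)
    (w : Fin (n + 1) → ℂ) :
    qf A w = A 0 0 * w 0 ^ 2 + 2 * w 0 * ∑ j : Fin n, A 0 j.succ * w j.succ +
      qf (A.submatrix Fin.succ Fin.succ) (fun j => w j.succ) := by
  simp only [qf, Fin.sum_univ_succ, sum_add_distrib, Matrix.submatrix_apply]
  have e1 : ∑ j : Fin n, w 0 * A 0 j.succ * w j.succ = w 0 * ∑ j : Fin n, A 0 j.succ * w j.succ := by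
    rw [mul_sum]; exact sum_congr rfl fun i _ => by ring
  have e2 : ∑ j : Fin n, w j.succ * A j.succ 0 * w 0 = w 0 * ∑ j : Fin n, A 0 j.succ * w j.succ := by
    rw [mul_sum]; exact sum_congr rfl fun i _ => by rw [hA 0]; ring
  rw [e1, e2]; ring

/-- dual Gaussian term -/
noncomputable def dt (C : Matrix (Fin n) (Fin n) ℝ) (s : ℂ) (b : Fin n → ℂ) (y : Fin n → ℤ) : ℂ :=
  cexp (-π / s * qf C (fun i => y i + I * b i))

theorem summable_dt {C : Matrix (Fin n) (Fin n) ℝ} (hC : PD C) (hCs : ∀ i j, C i j = C j i) {s : ℂ}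
    (hs : 0 < s.re) (b : Fin n → ℂ) : Summable (dt C s b) := by
  have hs0 : s ≠ 0 := by rintro rfl; simp at hs
  have hs' : 0 < s⁻¹.re := by
    rw [inv_re]; exact div_pos hs (normSq_pos.2 hs0)
  have := (summable_gt hC hs' (fun i => -s⁻¹ * ∑ j, I * b j * C j i)).of_norm.mul_right
    (cexp (-π / s * qf C (fun i => I * b i)))
  refine this.congr fun y => ?_
  rw [gt, dt, ← Complex.exp_add, qf_add hCs]
  congr 1
  have : ∑ i, (-s⁻¹ * ∑ j, I * b j * C j i) * y i = -s⁻¹ * ∑ i, (∑ j, I * b j * C j i) * y i := by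
    rw [mul_sum]; exact sum_congr rfl fun i _ => by ring
  rw [this]
  ring

theorem PD.inv {A C : Matrix (Fin n) (Fin n) ℝ} (hA : PD A) (hAC : A * C = 1) : PD C := by
  intro y hy
  have hq : ∀ (M : Matrix (Fin n) (Fin n) ℝ) (x : Fin n → ℝ), qr M x = x ⬝ᵥ M.mulVec x := by
    intro M x
    simp only [qr, dotProduct, Matrix.mulVec, mul_sum]
    exact sum_congr rfl fun i _ => sum_congr rfl fun j _ => by ring
  have h1 : A.mulVec (C.mulVec y) = y := by rw [Matrix.mulVec_mulVec, hAC, Matrix.one_mulVec]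
  have h2 := hA (C.mulVec y) (fun c => hy (by rw [← h1, c, Matrix.mulVec_zero]))
  rwa [hq, h1, dotProduct_comm, ← hq] at h2

theorem poisson : ∀ (n : ℕ) (A C : Matrix (Fin n) (Fin n) ℝ), PD A → (∀ i j, A i j = A j i) →
    (∀ i j, C i j = C j i) → A * C = 1 →
    ∃ c : ℂ, ∀ s : ℂ, 0 < s.re → ∀ b : Fin n → ℂ,
      ∑' x, gt A s b x = c * (1 / s ^ (1 / 2 : ℂ)) ^ n * ∑' y, dt C s b y
  | 0, A, C, _, _, _, _ => ⟨1, fun s _ b => by simp [gt, dt, qf]⟩
  | n + 1, A, C, hA, hAs, hCs, hAC => by
    set a : ℝ := A 0 0 with ha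
    set v : Fin n → ℝ := fun j => A 0 j.succ with hv
    set S : Matrix (Fin n) (Fin n) ℝ := fun i j => A i.succ j.succ - v i * v j / a with hS
    set C' : Matrix (Fin n) (Fin n) ℝ := C.submatrix Fin.succ Fin.succ with hC'
    have hapos : 0 < a := by
      have := hA (Pi.single 0 1) (by simp)
      simpa [qr, Fin.sum_univ_succ] using this
    have ha0 : (a : ℂ) ≠ 0 := by exact_mod_cast hapos.ne'
    have hqS : ∀ w : Fin n → ℂ, qf S w =
        qf (A.submatrix Fin.succ Fin.succ) w - (∑ j, v j * w j) ^ 2 / a := by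
      intro w
      simp only [qf, hS, Matrix.submatrix_apply, sq, sum_mul_sum, sum_div, ← sum_sub_distrib]
      exact sum_congr rfl fun i _ => sum_congr rfl fun j _ => by push_cast; ring
    have hSpd : PD S := by
      intro x hx
      have h1 := hA (Fin.cons (-(∑ j, v j * x j) / a) x) (fun c => hx (by
        ext i; simpa using congrFun c i.succ))
      have h2 : (qr A (Fin.cons (-(∑ j, v j * x j) / a) x) : ℂ) = qr S x := by
        rw [← qf_ofReal, ← qf_ofReal, qf_succ hAs, hqS]
        simp only [Fin.cons_zero, Fin.cons_succ, ← ha, hv]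
        push_cast
        field_simp
        ring
      rwa [ofReal_inj.1 h2] at h1
    have hSs : ∀ i j, S i j = S j i := fun i j => by simp only [hS]; rw [hAs, mul_comm]
    have hC's : ∀ i j, C' i j = C' j i := fun i j => hCs _ _
    have r1 : ∀ i : Fin n, ∑ j, v j * C' j i = -a * C 0 i.succ := by
      intro i
      have := congrFun (congrFun hAC 0) i.succ
      rw [Matrix.mul_apply, Fin.sum_univ_succ, Matrix.one_apply_ne (Fin.succ_ne_zero i).symm] at this
      simp only [hv, hC', Matrix.submatrix_apply]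
      linarith
    have r2 : ∑ j, v j * C 0 j.succ = 1 - a * C 0 0 := by
      have := congrFun (congrFun hAC 0) 0
      rw [Matrix.mul_apply, Fin.sum_univ_succ, Matrix.one_apply_eq] at this
      simp only [hv, hCs 0]
      linarith
    have hSC : S * C' = 1 := by
      ext i k
      have := congrFun (congrFun hAC i.succ) k.succ
      rw [Matrix.mul_apply, Fin.sum_univ_succ] at this
      have e : (1 : Matrix (Fin n) (Fin n) ℝ) i k = (1 : Matrix (Fin (n + 1)) (Fin (n + 1)) ℝ) i.succ k.succ := by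
        simp [Matrix.one_apply]
      rw [e, ← this, Matrix.mul_apply]
      have : ∑ j, S i j * C' j k = ∑ j : Fin n, A i.succ j.succ * C j.succ k.succ - v i / a * ∑ j, v j * C' j k := by
        rw [mul_sum, ← sum_sub_distrib]
        exact sum_congr rfl fun j _ => by simp only [hS, hC', Matrix.submatrix_apply]; ring
      rw [this, r1, hAs i.succ 0]
      simp only [hv]
      field_simp
      ring
    obtain ⟨c, hc⟩ := poisson n S C' hSpd hSs hC's hSC
    refine ⟨c / (a : ℂ) ^ (1 / 2 : ℂ), fun s hs b => ?_⟩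
    have hs0 : s ≠ 0 := by rintro rfl; simp at hs
    have hsa : 0 < ((a : ℂ) * s).re := by rw [re_ofReal_mul]; exact mul_pos hapos hs
    have hpow : ((a : ℂ) * s) ^ (1 / 2 : ℂ) = (a : ℂ) ^ (1 / 2 : ℂ) * s ^ (1 / 2 : ℂ) := by
      rw [cpow_def_of_ne_zero (mul_ne_zero ha0 hs0), cpow_def_of_ne_zero ha0, cpow_def_of_ne_zero hs0,
        log_ofReal_mul hapos hs0, ofReal_log hapos.le, add_mul, Complex.exp_add]
    -- the mixed term
    set F : (Fin n → ℤ) → ℤ → ℂ := fun x y => cexp (-π / (a * s) * (y + I * b 0) ^ 2) *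
      gt S s (fun j => b j.succ + I * (y + I * b 0) * v j / a) x with hF
    have hFs : Summable (Function.uncurry F) := by
      have h1 := summable_gt hSpd hs (fun j => b j.succ - b 0 * v j / a)
      have h2 := (summable_dt (C := (1 : Matrix (Fin 1) (Fin 1) ℝ))
        (PD.inv (A := 1) (fun x hx => by
          have : x 0 ≠ 0 := fun c => hx (by ext i; rw [Subsingleton.elim i 0]; exact c)
          simpa [qr] using this) (by simp))
        (fun i j => by rw [Subsingleton.elim i j]) hsa (fun _ => b 0)).norm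
      rw [← (Equiv.funUnique (Fin 1) ℤ).symm.summable_iff] at h2
      refine Summable.of_norm ((h1.mul_of_nonneg h2 (fun _ => norm_nonneg _)
        (fun _ => norm_nonneg _)).congr fun p => ?_)
      simp only [hF, Function.uncurry, norm_mul, Function.comp]
      rw [mul_comm]
      congr 1
      · simp [dt, qf, sq]
      · rw [norm_gt, norm_gt]
        congr 3
        refine sum_congr rfl fun i _ => ?_
        congr 1
        simp [div_ofReal_re]
        ring
    have h1 : ∑' x, gt A s b x = 1 / (a * s) ^ (1 / 2 : ℂ) * ∑' x, ∑' y, F x y := by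
      have hs1 := (summable_gt hA hs b).of_norm
      rw [← (consE n).summable_iff] at hs1
      rw [← (consE n).tsum_eq, show (fun p => gt A s b (consE n p)) = gt A s b ∘ consE n from rfl,
        hs1.tsum_prod, ← Summable.tsum_comm (f := fun x y => (gt A s b ∘ consE n) (x, y)) hs1,
        ← tsum_mul_left]
      refine tsum_congr fun x => ?_
      set L : ℂ := ∑ j, v j * x j with hL
      have e1 : ∀ m : ℤ, (gt A s b ∘ consE n) (m, x) =
          cexp (-π * (a * s) * m ^ 2 + 2 * π * (b 0 - s * L) * m) *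
          gt (A.submatrix Fin.succ Fin.succ) s (fun j => b j.succ) x := by
        intro m
        simp only [Function.comp, gt, ← Complex.exp_add, qf_succ hAs, Fin.sum_univ_succ, consE_zero,
          consE_succ, ← ha]
        congr 1
        simp only [hL, hv]
        ring
      simp only [e1]
      rw [tsum_mul_right, Complex.tsum_exp_neg_quadratic hsa, mul_assoc, ← tsum_mul_right]
      congr 1
      refine tsum_congr fun y => ?_
      simp only [hF, gt, ← Complex.exp_add, hqS]
      congr 1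
      have : ∑ j, (b j.succ + I * (y + I * b 0) * v j / a) * x j =
          ∑ j, b j.succ * x j + I * (y + I * b 0) / a * L := by
        rw [hL, mul_sum, ← sum_add_distrib]
        exact sum_congr rfl fun j _ => by ring
      rw [this, ← hL]
      field_simp
      linear_combination (-s ^ 2 * L ^ 2) * I_sq
    have h2 : ∑' y, dt C s b y = ∑' y₀ : ℤ, cexp (-π / (a * s) * (y₀ + I * b 0) ^ 2) *
        ∑' y, dt C' s (fun j => b j.succ + I * (y₀ + I * b 0) * v j / a) y := by
      have hs1 := summable_dt (hA.inv hAC) hCs hs b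
      rw [← (consE n).summable_iff] at hs1
      rw [← (consE n).tsum_eq, show (fun p => dt C s b (consE n p)) = dt C s b ∘ consE n from rfl,
        hs1.tsum_prod]
      refine tsum_congr fun y₀ => ?_
      rw [← tsum_mul_left]
      refine tsum_congr fun y => ?_
      simp only [Function.comp, dt, ← Complex.exp_add, qf_succ hCs, consE_zero, consE_succ, ← hC']
      congr 1
      set w₀ : ℂ := y₀ + I * b 0 with hw₀
      have e1 : (fun j => (y j : ℂ) + I * (b j.succ + I * w₀ * v j / a)) =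
          fun j => ((y j : ℂ) + I * b j.succ) + (-w₀ / a * v j) := by
        ext j
        linear_combination (w₀ * v j / a) * I_sq
      have e2 : ∀ i, ∑ j, (-w₀ / a * v j) * C' j i = w₀ * C 0 i.succ := by
        intro i
        have : ∑ j, (-w₀ / a * v j) * C' j i = -w₀ / a * ((∑ j, v j * C' j i : ℝ) : ℂ) := by
          push_cast
          rw [mul_sum]; exact sum_congr rfl fun j _ => by ring
        rw [this, r1]
        push_cast
        field_simp
      have e3 : qf C' (fun j => -w₀ / a * v j) = -w₀ ^ 2 / a * (1 - a * C 0 0) := by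
        have : qf C' (fun j => -w₀ / a * v j) = ∑ i, (∑ j, (-w₀ / a * v j) * C' j i) * (-w₀ / a * v i) := by
          rw [qf, sum_comm]
          exact sum_congr rfl fun i _ => by rw [sum_mul]
        rw [this]
        simp only [e2]
        have r2' : ((∑ j, v j * C 0 j.succ : ℝ) : ℂ) = 1 - a * C 0 0 := by rw [r2]; push_cast; ring
        rw [← r2']
        push_cast
        rw [mul_sum]
        exact sum_congr rfl fun j _ => by ring
      rw [e1, qf_add hC's (fun j => (y j : ℂ) + I * b j.succ), e3]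
      simp only [e2]
      have e4 : ∑ i, w₀ * C 0 i.succ * (y i + I * b i.succ) =
          w₀ * ∑ i, C 0 i.succ * (y i + I * b i.succ) := by
        rw [mul_sum]; exact sum_congr rfl fun j _ => by ring
      rw [e4]
      field_simp
      ring
    rw [h1, h2, ← hFs.tsum_comm, hpow, ← tsum_mul_left, ← tsum_mul_left]
    refine tsum_congr fun y => ?_
    simp only [hF]
    rw [tsum_mul_left, hc s hs]
    ring

end H56
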