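import Mathlib
import Cfsg.Agent.Base
import Cfsg.Agent.Lib.Theta.Poisson

/-!
The theta series of an even unimodular lattice of rank 24 is a modular form of weight 12.
-/

set_option autoImplicit false

namespace H56

open Complex Real Finset Matrix ModularForm MatrixGroups
open UpperHalfPlane hiding I I_re I_im

variable {n : ℕ}

/-- even unimodular positive definite Gram matrix -/
structure EU (B : Matrix (Fin n) (Fin n) ℤ) : Prop where
  symm : B.IsSymm
  pos : ∀ x : Fin n → ℤ, x ≠ 0 → 0 < x ⬝ᵥ (B *ᵥ x)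
  even : ∀ x : Fin n → ℤ, (2 : ℤ) ∣ x ⬝ᵥ (B *ᵥ x)
  det : B.det = 1

/-- the real matrix -/
def rm (B : Matrix (Fin n) (Fin n) ℤ) : Matrix (Fin n) (Fin n) ℝ := B.map (Int.cast)

theorem qr_rm (B : Matrix (Fin n) (Fin n) ℤ) (x : Fin n → ℤ) :
    qr (rm B) (fun i => x i) = ((x ⬝ᵥ (B *ᵥ x) : ℤ) : ℝ) := by
  simp only [qr, rm, dotProduct, mulVec, map_apply]
  push_cast
  simp only [mul_sum]
  exact sum_congr rfl fun i _ => sum_congr rfl fun j _ => by ring

theorem qr_eq (M : Matrix (Fin n) (Fin n) ℝ) (x : Fin n → ℝ) : qr M x = x ⬝ᵥ M.mulVec x := by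
  simp only [qr, dotProduct, Matrix.mulVec, mul_sum]
  exact sum_congr rfl fun i _ => sum_congr rfl fun j _ => by ring

theorem EU.nonneg {B : Matrix (Fin n) (Fin n) ℤ} (h : EU B) (x : Fin n → ℤ) : 0 ≤ x ⬝ᵥ (B *ᵥ x) := by
  by_cases hx : x = 0
  · simp [hx]
  · exact (h.pos x hx).le

theorem EU.rm_symm {B : Matrix (Fin n) (Fin n) ℤ} (h : EU B) (i j : Fin n) : rm B i j = rm B j i := by
  simp only [rm, map_apply]; rw [h.symm.apply]

theorem EU.pd {B : Matrix (Fin n) (Fin n) ℤ} (h : EU B) : PD (rm B) := by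
  have hc : Continuous (qr (rm B)) := by unfold qr; fun_prop
  have h1 : ∀ x : Fin n → ℚ, 0 ≤ qr (rm B) (fun i => x i) := by
    intro x
    set d : ℕ := ∏ i, (x i).den with hd
    have hd0 : (0 : ℝ) < d := by
      have : 0 < d := prod_pos fun i _ => (x i).den_pos
      exact_mod_cast this
    have hz : ∀ i, ∃ z : ℤ, (z : ℝ) = d * x i := by
      intro i
      obtain ⟨k, hk⟩ : (x i).den ∣ d := dvd_prod_of_mem _ (mem_univ i)
      refine ⟨k * (x i).num, ?_⟩
      have : ((x i).num : ℝ) = x i * (x i).den := by exact_mod_cast (Rat.mul_den_eq_num (x i)).symm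
      rw [hk]; push_cast; rw [this]; ring
    choose z hz using hz
    have h2 := qr_smul (rm B) d (fun i => x i)
    have h3 : ((d : ℝ) • fun i => (x i : ℝ)) = fun i => (z i : ℝ) := by ext i; simp [hz]
    rw [h3, qr_rm] at h2
    have h4 : (0 : ℝ) ≤ ((z ⬝ᵥ (B *ᵥ z) : ℤ) : ℝ) := by exact_mod_cast h.nonneg z
    rw [h2] at h4
    exact nonneg_of_mul_nonneg_right h4 (by positivity) |> fun t => by
      by_contra c
      have := mul_neg_of_pos_of_neg (pow_pos hd0 2) (not_le.1 c)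
      linarith
  have h2 : ∀ x : Fin n → ℝ, 0 ≤ qr (rm B) x := by
    intro x
    have hd : DenseRange (fun (x : Fin n → ℚ) (i : Fin n) => (x i : ℝ)) :=
      DenseRange.piMap (fun _ => Rat.denseRange_cast)
    exact hd.induction_on x (isClosed_le continuous_const hc) h1
  have hps : (rm B).PosSemidef := by
    rw [Matrix.posSemidef_iff_dotProduct_mulVec]
    refine ⟨?_, fun x => ?_⟩
    · ext i j; simp [h.rm_symm i j]
    · have := h2 x
      rwa [qr_eq] at this
  intro x hx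
  refine lt_of_le_of_ne (h2 x) fun c => hx ?_
  rw [qr_eq] at c
  have h3 := (hps.dotProduct_mulVec_zero_iff x).1 (by simpa using c.symm)
  have hdet : (rm B).det ≠ 0 := by
    have : (rm B).det = ((B.det : ℤ) : ℝ) := (Int.cast_det B).symm
    rw [this, h.det]; simp
  exact Matrix.eq_zero_of_mulVec_eq_zero hdet h3

theorem EU.transform {B : Matrix (Fin n) (Fin n) ℤ} (h : EU B) {s : ℂ} (hs : 0 < s.re) :
    ∑' x, gt (rm B) s 0 x = (1 / s ^ (1 / 2 : ℂ)) ^ n * ∑' x, gt (rm B) s⁻¹ 0 x := by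
  have hu : IsUnit B.det := by rw [h.det]; exact isUnit_one
  have hinv : rm B * rm B⁻¹ = 1 := by
    have := (Int.castRingHom ℝ).mapMatrix.map_mul B B⁻¹
    rw [Matrix.mul_nonsing_inv _ hu, map_one] at this
    exact this.symm
  have hsym : ∀ i j, rm B⁻¹ i j = rm B⁻¹ j i := by
    intro i j
    have : B⁻¹.IsSymm := by rw [Matrix.IsSymm, transpose_nonsing_inv, h.symm.eq]
    simp only [rm, map_apply]; rw [this.apply]
  obtain ⟨c, hc⟩ := poisson n (rm B) (rm B⁻¹) h.pd h.rm_symm hsym hinv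
  let e : (Fin n → ℤ) ≃ (Fin n → ℤ) :=
    { toFun := fun x => B *ᵥ x
      invFun := fun x => B⁻¹ *ᵥ x
      left_inv := fun x => by simp [Matrix.nonsing_inv_mul _ hu]
      right_inv := fun x => by simp [Matrix.mul_nonsing_inv _ hu] }
  have hd : ∀ s : ℂ, ∑' y, dt (rm B⁻¹) s 0 y = ∑' x, gt (rm B) s⁻¹ 0 x := by
    intro s
    rw [← e.tsum_eq]
    refine tsum_congr fun x => ?_
    simp only [dt, gt, Pi.zero_apply, mul_zero, add_zero, zero_mul, sum_const_zero, qf_intCast, qr_rm]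
    have : e x ⬝ᵥ (B⁻¹ *ᵥ e x) = x ⬝ᵥ (B *ᵥ x) := by
      rw [show B⁻¹ *ᵥ e x = x from e.left_inv x, dotProduct_comm]; rfl
    rw [this, div_eq_mul_inv]
  have h1 := hc 1 (by simp) 0
  rw [hd, inv_one, one_cpow, div_one, one_pow, mul_one] at h1
  have hne : ∑' x, gt (rm B) 1 0 x ≠ 0 := by
    have hsum := summable_gt h.pd (s := 1) (by simp) 0
    have e1 : ∀ x, gt (rm B) 1 0 x = ((‖gt (rm B) 1 0 x‖ : ℝ) : ℂ) := by
      intro x
      rw [norm_gt, gt, qf_intCast]
      simp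
    rw [tsum_congr e1, ← ofReal_tsum, ofReal_ne_zero]
    refine (hsum.tsum_pos (fun _ => norm_nonneg _) 0 ?_).ne'
    rw [norm_gt]; exact Real.exp_pos _
  have hc1 : c = 1 := by
    have : (c - 1) * ∑' x, gt (rm B) 1 0 x = 0 := by rw [sub_mul, ← h1]; ring
    rcases mul_eq_zero.1 this with t | t
    · exact sub_eq_zero.1 t
    · exact absurd t hne
  rw [hc s hs, hd, hc1, one_mul]

/-- theta series -/
noncomputable def theta (B : Matrix (Fin n) (Fin n) ℤ) (z : ℂ) : ℂ := ∑' x, gt (rm B) (-I * z) 0 x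

theorem gt_theta (B : Matrix (Fin n) (Fin n) ℤ) (z : ℂ) (x : Fin n → ℤ) :
    gt (rm B) (-I * z) 0 x = cexp (π * I * z * ((x ⬝ᵥ (B *ᵥ x) : ℤ) : ℂ)) := by
  simp only [gt, qf_intCast, qr_rm]
  congr 1
  simp [mul_assoc]

theorem hasSum_congr_fun {ι : Type*} {f g : ι → ℂ} {a : ℂ} (h : ∀ i, f i = g i) :
    HasSum f a ↔ HasSum g a := by rw [funext h]

theorem EU.hasSum_theta {B : Matrix (Fin n) (Fin n) ℤ} (h : EU B) (τ : ℍ) :
    HasSum (fun m : ℕ => (({x : Fin n → ℤ | x ⬝ᵥ (B *ᵥ x) = 2 * m}.ncard : ℕ) : ℂ) •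
      Function.Periodic.qParam 1 τ ^ m) (theta B τ) := by
  have hs := (summable_gt h.pd (s := -I * τ) (by simpa using τ.im_pos) 0).of_norm.hasSum
  have := hs.tsum_fiberwise (fun x => ((x ⬝ᵥ (B *ᵥ x)) / 2).toNat)
  refine (hasSum_congr_fun fun m => ?_).1 this
  have e : (fun x : Fin n → ℤ => ((x ⬝ᵥ (B *ᵥ x)) / 2).toNat) ⁻¹' {m} =
      {x : Fin n → ℤ | x ⬝ᵥ (B *ᵥ x) = 2 * m} := by
    ext x
    have h1 := h.nonneg x
    have h2 := h.even x
    simp only [Set.mem_preimage, Set.mem_singleton_iff, Set.mem_ofPred_eq]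
    omega
  rw [e, tsum_congr (g := fun _ => Function.Periodic.qParam 1 τ ^ m), tsum_const, Nat.card_coe_set_eq]
  · simp
  · rintro ⟨x, hx⟩
    rw [gt_theta, show x ⬝ᵥ (B *ᵥ x) = 2 * m from hx, Function.Periodic.qParam, ← Complex.exp_nat_mul]
    congr 1
    push_cast
    ring

theorem EU.differentiableOn_theta {B : Matrix (Fin n) (Fin n) ℤ} (h : EU B) :
    DifferentiableOn ℂ (theta B) {z | 0 < z.im} := by
  intro z hz
  have hz' : 0 < z.im / 2 := half_pos hz
  have hU : IsOpen {w : ℂ | z.im / 2 < w.im} := isOpen_lt continuous_const continuous_im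
  have := differentiableOn_tsum_of_summable_norm (F := fun x w => gt (rm B) (-I * w) 0 x)
    (summable_gt h.pd (s := ((z.im / 2 : ℝ) : ℂ)) (by simpa using hz') 0)
    (fun x => by unfold gt; fun_prop) hU (fun x w hw => by
      rw [norm_gt, norm_gt, Real.exp_le_exp, qr_rm]
      have h1 : (0 : ℝ) ≤ ((x ⬝ᵥ (B *ᵥ x) : ℤ) : ℝ) := by exact_mod_cast h.nonneg x
      have h2 : z.im / 2 < w.im := hw
      have h3 := mul_le_mul_of_nonneg_right h2.le (mul_nonneg pi_pos.le h1)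
      simp only [neg_mul, neg_re, mul_re, I_re, zero_mul, I_im, one_mul, zero_sub, neg_neg, ofReal_re]
      nlinarith)
  exact (this.differentiableAt (hU.mem_nhds (show z.im / 2 < z.im by linarith [hz']))).differentiableWithinAt

theorem EU.slash {B : Matrix (Fin 24) (Fin 24) ℤ} (h : EU B) (γ : SL(2, ℤ)) :
    (fun τ : ℍ => theta B τ) ∣[(12 : ℤ)] γ = fun τ : ℍ => theta B τ := by
  refine SlashInvariantForm.slash_action_generators_SL2Z ?_ ?_ γ
  · ext τ
    rw [slash_action_eq'_iff, modular_S_smul]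
    have hτ : (τ : ℂ) ≠ 0 := τ.ne_zero
    have hs : 0 < (-I * (-τ : ℂ)⁻¹).re := by
      have := τ.im_inv_neg_coe_pos
      simpa using this
    have h1 := h.transform hs
    have h2 : (-I * (-τ : ℂ)⁻¹)⁻¹ = -I * τ := by
      field_simp
      simp
    have h3 : (1 / (-I * (-τ : ℂ)⁻¹) ^ (1 / 2 : ℂ)) ^ 24 = (τ : ℂ) ^ 12 := by
      rw [one_div, inv_pow, ← cpow_nat_mul, show ((24 : ℕ) : ℂ) * (1 / 2) = ((12 : ℕ) : ℂ) by norm_num,
        cpow_natCast, ← inv_pow, h2, mul_pow]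
      have : (-I) ^ 12 = 1 := by
        rw [show 12 = 2 * 6 by rfl, pow_mul, neg_sq, I_sq]; norm_num
      rw [this, one_mul]
    rw [h2, h3] at h1
    simp only [theta, h1]
    simp [ModularGroup.S]
  · ext τ
    rw [slash_action_eq'_iff, modular_T_smul]
    have : theta B ((1 : ℝ) +ᵥ τ : ℍ) = theta B τ := by
      refine tsum_congr fun x => ?_
      rw [gt_theta, gt_theta]
      obtain ⟨k, hk⟩ := h.even x
      rw [hk, UpperHalfPlane.coe_vadd, Complex.exp_eq_exp_iff_exists_int]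
      exact ⟨k, by push_cast; ring⟩
    rw [this]
    simp [ModularGroup.T]

/-- the theta series as a modular form -/
noncomputable def EU.form {B : Matrix (Fin 24) (Fin 24) ℤ} (h : EU B) : ModularForm 𝒮ℒ 12 where
  toFun τ := theta B τ
  slash_action_eq' := fun _ ⟨γ, hγ⟩ => hγ ▸ h.slash γ
  holo' := by
    rw [mdifferentiable_iff]
    refine h.differentiableOn_theta.congr fun z hz => ?_
    simp [ofComplex_apply_of_im_pos hz]
  bdd_at_cusps' {c} hc := by
    rw [Subgroup.IsArithmetic.isCusp_iff_isCusp_SL2Z] at hc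
    rw [OnePoint.isBoundedAt_iff_forall_SL2Z hc]
    intro γ _
    rw [h.slash γ]
    exact isBoundedAtImInfty_of_hasSum_qExpansion one_pos h.hasSum_theta

theorem EU.coeff {B : Matrix (Fin 24) (Fin 24) ℤ} (h : EU B) (m : ℕ) :
    (qExpansion 1 h.form).coeff m = (({x : Fin 24 → ℤ | x ⬝ᵥ (B *ᵥ x) = 2 * m}.ncard : ℕ) : ℂ) :=
  (ModularFormClass.qExpansion_coeff_unique one_pos one_mem_strictPeriods_SL (f := h.form)
    h.hasSum_theta m).symm

end H56
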